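import Mathlib
import Cfsg.Agent.Lib.CharTheory.Ito
import Cfsg.Agent.Lib.CharTheory.Linear
import Cfsg.Agent.Lib.CharTheory.Orthogonality
import Cfsg.Agent.Lib.ZerosCodegree.CharBasics
import Cfsg.Agent.Lib.SL2.Normalizer

/-!
Counting characters of prime to `ℓ` degree in small metabelian groups.
-/

set_option autoImplicit false
set_option linter.unusedSectionVars false
set_option linter.style.haveILetI false

open Cfsg

namespace CfsgLib.CharDegrees

variable {G : Type*} [Group G] [Finite G]

/-- With an abelian normal subgroup of index prime to `ℓ`, all degrees are prime to `ℓ`. -/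
theorem card_prime_degree_eq_classes (A : Subgroup G) [A.Normal] (hA : ∀ a ∈ A, ∀ b ∈ A, a * b = b * a)
    {ℓ : ℕ} (hℓ : ¬ ℓ ∣ A.index) :
    Nat.card {χ : IrrCharacter G // ¬ ℓ ∣ charDegree (χ : G → ℂ)} = Nat.card (ConjClasses G) := by
  rw [← CharTheory.card_irrCharacter]
  refine Nat.card_congr (Equiv.subtypeUnivEquiv fun χ h => hℓ ?_)
  obtain ⟨d, hd, hdvd⟩ := CharTheory.exists_degree_dvd_index_of_abelian χ.2 A hA
  rw [ZerosCodegree.charDegree_eq hd] at h
  exact h.trans hdvd

/-- The squares of the degrees sum to the order. -/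
theorem sum_charDegree_sq [Fintype (IrrCharacter G)] :
    ∑ χ : IrrCharacter G, charDegree (χ : G → ℂ) ^ 2 = Nat.card G := by
  apply Nat.cast_injective (R := ℂ)
  rw [Nat.cast_sum, ← CharTheory.sum_degree_sq]
  refine Finset.sum_congr rfl fun χ _ => ?_
  rw [Nat.cast_pow, ← ZerosCodegree.irr_apply_one_eq]

/-- An abelian subgroup `A` of index two, inverted from outside and with one involution, gives four
characters of odd degree. -/
theorem card_odd_degree_inverting {A N : Subgroup G} {z : G} (hle : A ≤ N)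
    (hcard : Nat.card N = 2 * Nat.card A) (hcomm : ∀ x ∈ A, ∀ y ∈ A, x * y = y * x)
    (hz : z ∈ A) (hsq : ∀ x ∈ A, x * x = 1 ↔ x = 1 ∨ x = z) (hz1 : z ≠ 1)
    (hinv : ∀ k ∈ N, k ∉ A → ∀ x ∈ A, k * x * k⁻¹ = x⁻¹) :
    Nat.card {χ : IrrCharacter N // ¬ 2 ∣ charDegree (χ : N → ℂ)} = 4 := by
  classical
  have hcl := SL2.card_conjClasses_inverting hle hcard hcomm hz hsq hz1 hinv
  rw [← CharTheory.card_irrCharacter] at hcl
  haveI := Fintype.ofFinite (IrrCharacter N)
  have hidx : (A.subgroupOf N).index = 2 := by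
    have h := (A.subgroupOf N).card_mul_index
    rw [Nat.card_congr (Subgroup.subgroupOfEquivOfLe hle).toEquiv, hcard, mul_comm 2] at h
    exact Nat.eq_of_mul_eq_mul_left Nat.card_pos h
  haveI : (A.subgroupOf N).Normal := Subgroup.normal_of_index_eq_two hidx
  have hd : ∀ χ : IrrCharacter N, charDegree (χ : N → ℂ) = 1 ∨ charDegree (χ : N → ℂ) = 2 := by
    intro χ
    obtain ⟨d, hd, hdvd⟩ := CharTheory.exists_degree_dvd_index_of_abelian χ.2 (A.subgroupOf N)
      (fun a ha b hb => Subtype.ext (hcomm _ ha _ hb))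
    rw [hidx] at hdvd
    rw [ZerosCodegree.charDegree_eq hd]
    exact (Nat.dvd_prime Nat.prime_two).1 hdvd
  have key : 4 * Fintype.card (IrrCharacter N) =
      3 * Nat.card {χ : IrrCharacter N // ¬ 2 ∣ charDegree (χ : N → ℂ)} + Nat.card N := by
    rw [← sum_charDegree_sq (G := N),
      Nat.card_eq_fintype_card (α := {χ : IrrCharacter N // ¬ 2 ∣ charDegree (χ : N → ℂ)}),
      Fintype.card_subtype (fun χ : IrrCharacter N => ¬ 2 ∣ charDegree (χ : N → ℂ)), Finset.card_filter,
      Finset.mul_sum, ← Finset.sum_add_distrib,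
      ← Finset.card_univ, Finset.card_eq_sum_ones, Finset.mul_sum]
    refine Finset.sum_congr rfl fun χ _ => ?_
    rcases hd χ with h | h <;> simp [h]
  rw [← Nat.card_eq_fintype_card] at key
  omega

/-- A group of order 24 with three linear characters has four characters of odd degree. -/
theorem card_odd_degree_twentyfour (h24 : Nat.card G = 24) (hlin : (commutator G).index = 3) :
    Nat.card {χ : IrrCharacter G // ¬ 2 ∣ charDegree (χ : G → ℂ)} = 4 := by
  classical
  haveI := Fintype.ofFinite (IrrCharacter G)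
  have hs := sum_charDegree_sq (G := G)
  rw [h24] at hs
  have hd : ∀ χ : IrrCharacter G, charDegree (χ : G → ℂ) = 1 ∨ charDegree (χ : G → ℂ) = 2 ∨
      charDegree (χ : G → ℂ) = 3 ∨ charDegree (χ : G → ℂ) = 4 := by
    intro χ
    have h1 : charDegree (χ : G → ℂ) ^ 2 ≤ 24 :=
      hs ▸ Finset.single_le_sum (f := fun χ : IrrCharacter G => charDegree (χ : G → ℂ) ^ 2)
        (fun _ _ => Nat.zero_le _) (Finset.mem_univ χ)
    have h2 := ZerosCodegree.charDegree_pos χ
    have : charDegree (χ : G → ℂ) < 5 := by nlinarith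
    omega
  have hl := CharTheory.card_linear (G := G)
  rw [hlin, Nat.card_eq_fintype_card, Fintype.card_subtype,
    Finset.filter_congr (q := fun χ : IrrCharacter G => charDegree (χ : G → ℂ) = 1) (fun χ _ => by
      rw [ZerosCodegree.irr_apply_one_eq, Nat.cast_eq_one]), Finset.card_filter] at hl
  rw [Nat.card_eq_fintype_card, Fintype.card_subtype, Finset.card_filter]
  set c := ∑ χ : IrrCharacter G, (if charDegree (χ : G → ℂ) = 3 then 1 else 0)
  set b := ∑ χ : IrrCharacter G, (if charDegree (χ : G → ℂ) = 2 then 1 else if charDegree (χ : G → ℂ) = 4 then 4 else 0)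
  have e1 : ∑ χ : IrrCharacter G, (if ¬ 2 ∣ charDegree (χ : G → ℂ) then 1 else 0) =
      (∑ χ : IrrCharacter G, if charDegree (χ : G → ℂ) = 1 then 1 else 0) + c := by
    rw [← Finset.sum_add_distrib]
    refine Finset.sum_congr rfl fun χ _ => ?_
    rcases hd χ with h | h | h | h <;> simp [h]
  have e2 : 24 = (∑ χ : IrrCharacter G, if charDegree (χ : G → ℂ) = 1 then 1 else 0) + 9 * c + 4 * b := by
    rw [← hs, Finset.mul_sum, Finset.mul_sum, ← Finset.sum_add_distrib, ← Finset.sum_add_distrib]
    refine Finset.sum_congr rfl fun χ _ => ?_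
    rcases hd χ with h | h | h | h <;> simp [h]
  omega

end CfsgLib.CharDegrees
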