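import Mathlib
import Cfsg.Agent.Lib.CharDegrees.DegreeCounts
import Cfsg.Agent.Lib.CharDegrees.SL2Borel
import Cfsg.Agent.Lib.CharDegrees.PSLTwoClasses
import Cfsg.Agent.Lib.CharDegreesTheory.SolvableAction
import Cfsg.Agent.Lib.SL2.Card
import Cfsg.Agent.Lib.SL2.Sylow
import Cfsg.Agent.Lib.SL2.SylowTwo
import Cfsg.Agent.S2437

/-!
Characters of prime to `ℓ` degree of the Sylow normalisers of `SL₂(q)`, `q` odd.
-/

set_option autoImplicit false
set_option linter.unusedSectionVars false
set_option linter.style.haveILetI false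

open Matrix Cfsg
open scoped MatrixGroups Pointwise commutatorElement

namespace CfsgLib.CharDegrees

open CfsgLib.SL2
open CfsgLib.ClassicalLinear (upS upS_coe upS_add upS_injective)

variable {F : Type*} [Field F] [Fintype F] [DecidableEq F]

local notation "M₂" => Matrix (Fin 2) (Fin 2) F
local notation "G₂" => SL(2, F)

/-- The unitriangular subgroup. -/
def unipotentGroup (F : Type*) [Field F] : Subgroup (SL(2, F)) where
  carrier := Set.range (upS : F → SL(2, F))
  one_mem' := ⟨0, upS_zero⟩
  mul_mem' := by rintro _ _ ⟨a, rfl⟩ ⟨b, rfl⟩; exact ⟨a + b, upS_add a b⟩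
  inv_mem' := by
    rintro _ ⟨a, rfl⟩
    exact ⟨-a, eq_inv_of_mul_eq_one_left (by rw [← upS_add, neg_add_cancel, upS_zero])⟩

theorem card_unipotentGroup : Nat.card (unipotentGroup F) = Nat.card F :=
  (Nat.card_congr (Equiv.ofInjective _ upS_injective)).symm

theorem normalizer_unipotentGroup :
    Subgroup.normalizer ((unipotentGroup F : Subgroup G₂) : Set G₂) = borel F := by
  ext g
  rw [Subgroup.mem_normalizer_iff, mem_borel]
  constructor
  · intro h
    obtain ⟨x, hx⟩ := (h (upS 1)).1 ⟨1, rfl⟩
    have e : (upS x * g : G₂) = g * upS 1 := by rw [hx]; group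
    have e0 := congrArg (fun y : G₂ => (y : M₂) 0 0) e
    simp [upS_coe, Matrix.mul_apply] at e0
    have e1 := congrArg (fun y : G₂ => (y : M₂) 1 1) e
    simp [upS_coe, Matrix.mul_apply] at e1
    exact e1
  · intro h0 y
    have key : ∀ k : G₂, (k : M₂) 1 0 = 0 → ∀ t, k * upS t * k⁻¹ ∈ unipotentGroup F := by
      intro k hk t
      obtain ⟨a, x, rfl, -⟩ := borel_exists (mem_borel.2 hk)
      refine ⟨(a : F) ^ 2 * t, ?_⟩
      rw [← conj_diag_upS]
      calc SL2.diag a * upS t * (SL2.diag a)⁻¹
          = SL2.diag a * (upS t * (upS x * (upS x)⁻¹)) * (SL2.diag a)⁻¹ := by group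
        _ = SL2.diag a * (upS x * upS t * (upS x)⁻¹) * (SL2.diag a)⁻¹ := by
          rw [← mul_assoc (upS t), ← upS_add, add_comm, upS_add]
        _ = _ := by group
    constructor
    · rintro ⟨t, rfl⟩
      exact key g h0 t
    · rintro ⟨t, ht⟩
      have := key g⁻¹ (mem_borel.1 ((borel F).inv_mem (mem_borel.2 h0))) t
      rw [ht] at this
      simpa [mul_assoc] using this

theorem card_prime_degree_normalizer_char (hodd : Odd (Fintype.card F)) (ℓ : ℕ) [Fact ℓ.Prime] [CharP F ℓ]
    (S : Sylow ℓ G₂) :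
    Nat.card {ψ : IrrCharacter (Subgroup.normalizer ((S : Subgroup G₂) : Set G₂)) //
      ¬ ℓ ∣ charDegree (ψ : Subgroup.normalizer ((S : Subgroup G₂) : Set G₂) → ℂ)} = Fintype.card F + 3 := by
  obtain ⟨n, hp, hn⟩ := FiniteField.card F ℓ
  have hU : Nat.card (unipotentGroup F) = ℓ ^ (Nat.card G₂).factorization ℓ := by
    rw [card_unipotentGroup, card_SL, Nat.card_eq_fintype_card, hn,
      Nat.factorization_mul (pow_ne_zero _ hp.ne_zero)
        (Nat.sub_ne_zero_of_lt (Nat.one_lt_pow two_ne_zero (Nat.one_lt_pow n.ne_zero hp.one_lt))),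
      Finsupp.add_apply, Nat.Prime.factorization_pow hp, Finsupp.single_eq_same,
      Nat.factorization_eq_zero_of_not_dvd (n := (ℓ ^ (n : ℕ)) ^ 2 - 1) (fun h => ?_), add_zero]
    have h' := Nat.dvd_sub ((dvd_pow_self ℓ n.ne_zero).trans (dvd_pow_self (ℓ ^ (n : ℕ)) two_ne_zero)) h
    rw [Nat.sub_sub_self (Nat.one_le_pow _ _ (Nat.pow_pos hp.pos))] at h'
    exact hp.not_dvd_one h'
  obtain ⟨k, hk⟩ := MulAction.exists_smul_eq G₂ (Sylow.ofCard _ hU) S
  have hS : (S : Subgroup G₂) = (unipotentGroup F).map (MulAut.conj k).toMonoidHom := by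
    rw [← hk, Sylow.coe_subgroup_smul]
    rfl
  have hN : Subgroup.normalizer ((S : Subgroup G₂) : Set G₂) = (borel F).map (MulAut.conj k).toMonoidHom := by
    rw [← normalizer_unipotentGroup, Subgroup.map_equiv_normalizer_eq _ (MulAut.conj k), hS]
  have hab : ∀ a ∈ (S : Subgroup G₂), ∀ b ∈ (S : Subgroup G₂), a * b = b * a := by
    rw [hS]
    rintro _ ⟨_, ⟨x, rfl⟩, rfl⟩ _ ⟨_, ⟨y, rfl⟩, rfl⟩
    rw [← map_mul, ← map_mul, ← upS_add, ← upS_add, add_comm]
  set N := Subgroup.normalizer ((S : Subgroup G₂) : Set G₂) with hNdef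
  have e : borel F ≃* N := ((MulAut.conj k).subgroupMap (borel F)).trans (MulEquiv.subgroupCongr hN.symm)
  haveI : ((S : Subgroup G₂).subgroupOf N).Normal := Subgroup.normal_in_normalizer
  rw [card_prime_degree_eq_classes ((S : Subgroup G₂).subgroupOf N)
    (fun a ha b hb => Subtype.ext (hab _ ha _ hb))]
  · rw [← CharDegreesTheory.card_conjClasses_congr e]
    have h := Cfsg.Agent.S2437.result (F := F) hodd
    have hb : Nat.card (ConjClasses (borelU F)) = Nat.card (ConjClasses (borel F)) := by rw [borelU_eq_borel]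
    rw [← hb]
    exact h
  · intro hdvd
    have hc : Nat.card ((S : Subgroup G₂).subgroupOf N) = Nat.card F := by
      rw [Nat.card_congr (Subgroup.subgroupOfEquivOfLe Subgroup.le_normalizer).toEquiv, S.card_eq_multiplicity,
        ← hU, card_unipotentGroup]
    have hi := ((S : Subgroup G₂).subgroupOf N).card_mul_index
    rw [hc, ← Nat.card_congr e.toEquiv, card_borel] at hi
    rw [Nat.eq_of_mul_eq_mul_left Nat.card_pos hi, Nat.card_eq_fintype_card, hn] at hdvd
    have h' := Nat.dvd_sub (dvd_pow_self ℓ n.ne_zero) hdvd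
    rw [Nat.sub_sub_self (Nat.one_le_pow _ _ hp.pos)] at h'
    exact hp.not_dvd_one h'

theorem card_prime_degree_normalizer_odd (h2 : (2 : F) ≠ 0) (ℓ : ℕ) [Fact ℓ.Prime] (hℓ : ℓ ≠ 2)
    (hdvd : ℓ ∣ Nat.card F - 1 ∨ ℓ ∣ Nat.card F + 1) (S : Sylow ℓ G₂) :
    2 * Nat.card {ψ : IrrCharacter (Subgroup.normalizer ((S : Subgroup G₂) : Set G₂)) //
      ¬ ℓ ∣ charDegree (ψ : Subgroup.normalizer ((S : Subgroup G₂) : Set G₂) → ℂ)} =
      (if ℓ ∣ Nat.card F - 1 then Nat.card F - 1 else Nat.card F + 1) + 6 := by
  obtain ⟨g, ht, -, -, -, hℓT, hN⟩ := sylow_odd_structure ℓ hℓ hdvd S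
  have hg := notMem_center_of_tr ht
  set T := Subgroup.centralizer ({g} : Set G₂) with hT
  rw [hN]
  have hcl := card_conjClasses_normalizer h2 ht
  set N := Subgroup.normalizer ((T : Subgroup G₂) : Set G₂) with hNdef
  haveI : (T.subgroupOf N).Normal := Subgroup.normal_in_normalizer
  rw [card_prime_degree_eq_classes (T.subgroupOf N)
    (fun a ha b hb => Subtype.ext (centralizer_mulComm hg ha hb)), hcl]
  · congr 1
    rcases card_centralizer_or ht with h | h <;> rw [← hT] at h <;> rw [h]
    · rw [if_pos (h ▸ hℓT)]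
    · rw [if_neg]
      intro h'
      have h'' := Nat.dvd_sub (h ▸ hℓT) h'
      have := Nat.le_of_dvd (by have := Finite.one_lt_card (α := F); omega) h''
      have := (Fact.out : ℓ.Prime).two_le
      have := Finite.one_lt_card (α := F)
      omega
  · intro h
    have hi := (T.subgroupOf N).card_mul_index
    rw [Nat.card_congr (Subgroup.subgroupOfEquivOfLe Subgroup.le_normalizer).toEquiv, card_normalizer ht,
      mul_comm 2] at hi
    rw [Nat.eq_of_mul_eq_mul_left Nat.card_pos hi] at h
    exact hℓ ((Nat.prime_dvd_prime_iff_eq Fact.out Nat.prime_two).1 h)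

theorem card_odd_degree_normalizer_two (h2 : (2 : F) ≠ 0) (S : Sylow 2 G₂) :
    Nat.card {ψ : IrrCharacter (Subgroup.normalizer ((S : Subgroup G₂) : Set G₂)) //
      ¬ 2 ∣ charDegree (ψ : Subgroup.normalizer ((S : Subgroup G₂) : Set G₂) → ℂ)} = 4 := by
  classical
  have hodd : Nat.card F % 2 = 1 := by
    rw [Nat.card_eq_fintype_card]
    have := (odd_facts h2).2.2
    omega
  obtain ⟨hC, h16, h8⟩ := sylow_two_structure hodd S
  obtain ⟨g, ht, h4, hSN, hSc⟩ := sylow_two_exists_torus hodd S
  have hg := notMem_center_of_tr ht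
  set T := Subgroup.centralizer ({g} : Set G₂) with hT
  set A := (S : Subgroup G₂) ⊓ T with hA
  have hcS : Subgroup.center G₂ ≤ (S : Subgroup G₂) := fun z hz => by
    refine two_group_mem_sylow S ?_ (k := 1) ?_
    · rw [Subgroup.mem_normalizer_iff]
      intro y
      rw [← Subgroup.mem_center_iff.1 hz y, mul_inv_cancel_right]
    · rcases (mem_center_iff z).1 hz with rfl | rfl <;> simp
  have hzA : (-1 : G₂) ∈ A := ⟨hcS neg_one_mem_center, center_le_centralizer g neg_one_mem_center⟩
  have hinv : ∀ k ∈ (S : Subgroup G₂), k ∉ A → ∀ x ∈ A, k * x * k⁻¹ = x⁻¹ := fun k hk hkA x hx =>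
    conj_eq_inv_of_inverts hg (conj_eq_inv_of_mem_normalizer ht (hSN hk) (fun h => hkA ⟨hk, h⟩)) hx.2
  set v := (Nat.card T).factorization 2 with hv
  have hv2 : 2 ≤ v := (Nat.Prime.pow_dvd_iff_le_factorization Nat.prime_two Nat.card_pos.ne').1 h4
  have hAcard : Nat.card (S : Subgroup G₂) = 2 * Nat.card A := by
    have h1 : (A.subgroupOf (S : Subgroup G₂)).index ∣ 2 := by
      have hrel : T.relIndex (Subgroup.normalizer (T : Set G₂)) = 2 := by
        have h := (T.subgroupOf (Subgroup.normalizer (T : Set G₂))).card_mul_index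
        rw [Nat.card_congr (Subgroup.subgroupOfEquivOfLe Subgroup.le_normalizer).toEquiv, card_normalizer ht,
          mul_comm 2] at h
        exact Nat.eq_of_mul_eq_mul_left Nat.card_pos h
      have hle := Subgroup.relIndex_le_of_le_right (H := T) hSN (by rw [hrel]; omega)
      rw [hrel] at hle
      have h0 : (A.subgroupOf (S : Subgroup G₂)).index = T.relIndex (S : Subgroup G₂) := by
        rw [hA, Subgroup.relIndex, Subgroup.inf_subgroupOf_left]
      have hne : (A.subgroupOf (S : Subgroup G₂)).index ≠ 0 := Subgroup.index_ne_zero_of_finite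
      rw [h0] at hne ⊢
      rcases (by omega : T.relIndex (S : Subgroup G₂) = 1 ∨ T.relIndex (S : Subgroup G₂) = 2) with e | e <;> simp [e]
    have hA2 : Nat.card A ∣ 2 ^ v := by
      have hdT : Nat.card A ∣ Nat.card T := Subgroup.card_dvd_of_le inf_le_right
      have hdS : Nat.card A ∣ 2 ^ (v + 1) := by
        rw [pow_succ', ← hSc]; exact Subgroup.card_dvd_of_le inf_le_left
      obtain ⟨i, hi, hi'⟩ := (Nat.dvd_prime_pow Nat.prime_two).1 hdS
      rw [hi'] at hdT ⊢
      exact pow_dvd_pow 2 ((Nat.Prime.pow_dvd_iff_le_factorization Nat.prime_two Nat.card_pos.ne').1 hdT)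
    have h := (A.subgroupOf (S : Subgroup G₂)).card_mul_index
    rw [Nat.card_congr (Subgroup.subgroupOfEquivOfLe inf_le_left).toEquiv] at h
    have := Nat.le_of_dvd (by norm_num) h1
    have := Nat.le_of_dvd (Nat.two_pow_pos v) hA2
    have hA0 : 0 < Nat.card A := Nat.card_pos
    change Nat.card A * _ = _ at h
    rw [hSc] at h ⊢
    rcases (by omega : (A.subgroupOf (S : Subgroup G₂)).index ≤ 1 ∨ (A.subgroupOf (S : Subgroup G₂)).index = 2) with e | e
    · have := Nat.mul_le_mul_left (Nat.card A) e
      omega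
    · rw [e] at h; omega
  by_cases h : 16 ∣ Nat.card (S : Subgroup G₂)
  · rw [h16 h]
    exact card_odd_degree_inverting (z := -1) (A := A) (N := (S : Subgroup G₂)) inf_le_left hAcard
      (fun x hx y hy => centralizer_mulComm hg hx.2 hy.2) hzA
      (fun x _ => ⟨fun h => or_iff_not_imp_left.2 (eq_neg_one_of_sq_eq_one h2 (by rwa [sq])),
        by rintro (rfl | rfl) <;> simp⟩)
      (neg_one_ne_one h2) hinv
  · have hcard8 : Nat.card (S : Subgroup G₂) = 8 := by
      rw [hSc] at h ⊢
      rcases (by omega : v = 2 ∨ 3 ≤ v) with e | e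
      · rw [e]; norm_num
      · exact absurd (dvd_trans (by norm_num) (mul_dvd_mul_left 2 (pow_dvd_pow 2 e))) h
    set N := Subgroup.normalizer ((S : Subgroup G₂) : Set G₂) with hN
    have hN24 : Nat.card N = 24 := h8 hcard8
    refine card_odd_degree_twentyfour hN24 ?_
    obtain ⟨y, hy⟩ := exists_prime_orderOf_dvd_card' (G := N) 3 (by rw [hN24]; norm_num)
    have hy' : orderOf (y : G₂) = 3 := by rw [Subgroup.orderOf_coe, hy]
    -- only the centre of `S` commutes with `y`
    have hfix : ∀ s ∈ (S : Subgroup G₂), s * y = y * s → s ∈ Subgroup.center G₂ := by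
      intro s hs hsy
      by_contra hsc
      have hs4 : (s : G₂) ^ 2 = -1 := by
        have h8' : s ^ 8 = 1 := by
          have := pow_card_eq_one' (G := (S : Subgroup G₂)) (x := ⟨s, hs⟩)
          rw [hcard8] at this
          simpa using congrArg Subtype.val this
        have hs2 : s ^ 2 ≠ 1 := fun e => hsc ((mem_center_iff s).2
          (or_iff_not_imp_left.2 (eq_neg_one_of_sq_eq_one h2 e)))
        by_contra hne
        have hs4' : s ^ 4 ≠ 1 := fun e => hne (eq_neg_one_of_sq_eq_one h2 (by rw [← pow_mul]; exact e) hs2)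
        have hord : orderOf (⟨s, hs⟩ : (S : Subgroup G₂)) = 8 := by
          rw [← Subgroup.orderOf_coe]
          exact orderOf_eq_prime_pow (p := 2) (n := 2) (by simpa using hs4') (by simpa using h8')
        haveI : IsCyclic (S : Subgroup G₂) := isCyclic_of_orderOf_eq_card _ (hord.trans hcard8.symm)
        letI := IsCyclic.commGroup (α := (S : Subgroup G₂))
        exact hsc (hC ▸ Subgroup.mem_centralizer_iff.2 fun x hx =>
          congrArg Subtype.val (mul_comm (⟨x, hx⟩ : (S : Subgroup G₂)) ⟨s, hs⟩))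
      have hts : tr s ^ 2 ≠ 4 := by
        have h0 : tr s = 0 := by
          have hm := mul_self_eq s
          have e : (s : M₂) * (s : M₂) = -1 := by
            rw [← Matrix.SpecialLinearGroup.coe_mul, ← sq, hs4]; simp
          rw [e] at hm
          have hm' : tr s • (s : M₂) = 0 := by
            have := congrArg (· + (1 : M₂)) hm
            simpa using this.symm
          rcases smul_eq_zero.1 hm' with h | h
          · exact h
          · exact absurd (det_eq s) (by rw [h]; simp)
        rw [h0]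
        intro e
        apply h2
        have : (2 : F) * 2 = 0 := by linear_combination -e
        exact mul_self_eq_zero.1 this
      have hg' := notMem_center_of_tr hts
      have hyT : (y : G₂) ∈ Subgroup.centralizer ({s} : Set G₂) :=
        Subgroup.mem_centralizer_singleton_iff.2 hsy.symm
      obtain ⟨w, hw, hwT⟩ : ∃ w ∈ (S : Subgroup G₂), w ∉ Subgroup.centralizer ({s} : Set G₂) := by
        by_contra! hall
        exact hsc (hC ▸ Subgroup.mem_centralizer_iff.2 fun x hx =>
          Subgroup.mem_centralizer_singleton_iff.1 (hall x hx))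
      have hws : w * s * w⁻¹ = s⁻¹ := by
        have hidx : ((Subgroup.zpowers s).subgroupOf (S : Subgroup G₂)).index = 2 := by
          have h := ((Subgroup.zpowers s).subgroupOf (S : Subgroup G₂)).card_mul_index
          have ho : orderOf s = 4 := orderOf_eq_prime_pow (p := 2) (n := 1)
            (by rw [pow_one, hs4]; exact neg_one_ne_one h2) (by rw [show 2 ^ 2 = 2 * 2 from rfl, pow_mul, hs4]; simp)
          rw [Nat.card_congr (Subgroup.subgroupOfEquivOfLe (Subgroup.zpowers_le.2 hs)).toEquiv,
            Nat.card_zpowers, ho, hcard8] at h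
          omega
        have hmem := (Subgroup.normal_of_index_eq_two hidx).conj_mem ⟨s, hs⟩ (Subgroup.mem_zpowers s) ⟨w, hw⟩
        have hle : Subgroup.zpowers s ≤ Subgroup.centralizer ({s} : Set G₂) :=
          Subgroup.zpowers_le.2 (Subgroup.mem_centralizer_singleton_iff.2 rfl)
        have hm' : w * s * w⁻¹ ∈ Subgroup.centralizer ({s} : Set G₂) := hle (Subgroup.mem_subgroupOf.1 hmem)
        rcases eq_or_eq_inv hts hm' (by rw [tr_conj]) with e | e
        · exact absurd (Subgroup.mem_centralizer_singleton_iff.2 (mul_inv_eq_iff_eq_mul.1 e)) hwT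
        · exact e
      have hwy := conj_eq_inv_of_inverts hg' hws hyT
      have hmem : (y : G₂) * w * (y : G₂)⁻¹ * w⁻¹ ∈ (S : Subgroup G₂) :=
        mul_mem ((Subgroup.mem_normalizer_iff.1 y.2 w).1 hw) (inv_mem hw)
      rw [show (y : G₂) * w * (y : G₂)⁻¹ * w⁻¹ = (y : G₂) * (w * (y : G₂) * w⁻¹)⁻¹ by group, hwy, inv_inv] at hmem
      have h1 : ((y : G₂) * y) ^ 8 = 1 := by
        have := pow_card_eq_one' (G := (S : Subgroup G₂)) (x := ⟨_, hmem⟩)
        rw [hcard8] at this
        simpa using congrArg Subtype.val this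
      have : orderOf (y : G₂) ∣ 16 := orderOf_dvd_of_pow_eq_one (by
        rw [show 16 = 2 * 8 from rfl, pow_mul, sq, h1])
      rw [hy'] at this
      norm_num at this
    -- the commutators with `y`
    let f : ↥(S : Subgroup G₂) → N := fun s => ⁅(⟨s, Subgroup.le_normalizer s.2⟩ : N), y⁆
    have hfS : ∀ s, (f s : G₂) ∈ (S : Subgroup G₂) := by
      intro s
      simp only [f, commutatorElement_def, Subgroup.coe_mul, Subgroup.coe_inv]
      rw [show (s : G₂) * y * (s : G₂)⁻¹ * (y : G₂)⁻¹ = s * (y * (s : G₂)⁻¹ * (y : G₂)⁻¹) by group]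
      exact mul_mem s.2 ((Subgroup.mem_normalizer_iff.1 y.2 _).1 (inv_mem s.2))
    have hfib : ∀ s t, f s = f t → (t : G₂) = s ∨ (t : G₂) = -1 * s := by
      intro s t e
      have e' := congrArg Subtype.val e
      simp only [f, commutatorElement_def, Subgroup.coe_mul, Subgroup.coe_inv, mul_left_inj] at e'
      have hst : ((t : G₂)⁻¹ * s) * y = y * ((t : G₂)⁻¹ * s) := by
        calc ((t : G₂)⁻¹ * s) * y = (t : G₂)⁻¹ * ((s : G₂) * y * (s : G₂)⁻¹) * s := by group
          _ = (t : G₂)⁻¹ * ((t : G₂) * y * (t : G₂)⁻¹) * s := by rw [e']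
          _ = y * ((t : G₂)⁻¹ * s) := by group
      rcases (mem_center_iff _).1 (hfix _ (mul_mem (inv_mem t.2) s.2) hst) with h | h
      · exact Or.inl (inv_mul_eq_one.1 h)
      · right
        rw [inv_mul_eq_iff_eq_mul] at h
        rw [h]
        simp
    have hno : ∀ s, (f s : G₂) ≠ -1 := by
      intro s e
      simp only [f, commutatorElement_def, Subgroup.coe_mul, Subgroup.coe_inv, mul_inv_eq_iff_eq_mul] at e
      have := (MulAut.conj (s : G₂)).orderOf_eq (y : G₂)
      rw [MulAut.conj_apply, mul_inv_eq_iff_eq_mul.2 e] at this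
      have hc : Commute (-1 : G₂) (y : G₂) := (Subgroup.mem_center_iff.1 neg_one_mem_center _).symm
      have h3 : ((-1 : G₂) * y) ^ 3 = 1 := by rw [← hy', ← this, pow_orderOf_eq_one]
      rw [hc.mul_pow, ← hy', pow_orderOf_eq_one, mul_one, hy'] at h3
      refine neg_one_ne_one h2 ?_
      rwa [show (-1 : G₂) ^ 3 = -1 by simp [pow_succ]] at h3
    obtain ⟨w, hw, hwA⟩ : ∃ w ∈ (S : Subgroup G₂), w ∉ A := by
      by_contra! hall
      have := Subgroup.card_dvd_of_le (show (S : Subgroup G₂) ≤ A from hall)
      have := Nat.le_of_dvd Nat.card_pos this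
      have hA0 : 0 < Nat.card A := Nat.card_pos
      omega
    obtain ⟨i, hi, hi2⟩ : ∃ i ∈ A, i ^ 2 = -1 := by
      have hc : Nat.card A = 4 := by omega
      haveI : IsCyclic T := isCyclic_centralizer ht
      haveI : IsCyclic A := isCyclic_of_injective (Subgroup.inclusion (show A ≤ T from inf_le_right))
        (Subgroup.inclusion_injective _)
      obtain ⟨i, hi⟩ := IsCyclic.exists_generator (α := A)
      have ho : orderOf (i : G₂) = 4 := by
        rw [Subgroup.orderOf_coe, orderOf_eq_card_of_forall_mem_zpowers hi, hc]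
      refine ⟨i, i.2, eq_neg_one_of_sq_eq_one h2 (by rw [← pow_mul, show 2 * 2 = orderOf (i : G₂) from by rw [ho], pow_orderOf_eq_one]) fun e => ?_⟩
      have := Nat.le_of_dvd two_pos (orderOf_dvd_of_pow_eq_one e)
      omega
    have hmz : (⟨-1, Subgroup.le_normalizer (hcS neg_one_mem_center)⟩ : N) ∈ commutator N := by
      have h : (⟨-1, Subgroup.le_normalizer (hcS neg_one_mem_center)⟩ : N) =
          ⁅(⟨w, Subgroup.le_normalizer hw⟩ : N), ⟨i, Subgroup.le_normalizer (Subgroup.mem_inf.1 hi).1⟩⁆ := by
        apply Subtype.ext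
        simp only [commutatorElement_def, Subgroup.coe_mul, Subgroup.coe_inv]
        rw [hinv w hw hwA i hi, ← _root_.mul_inv_rev, ← sq, hi2]
        simp
      rw [h, commutator_def]
      exact Subgroup.commutator_mem_commutator (Subgroup.mem_top _) (Subgroup.mem_top _)
    haveI : ((S : Subgroup G₂).subgroupOf N).Normal := Subgroup.normal_in_normalizer
    have hSidx : ((S : Subgroup G₂).subgroupOf N).index = 3 := by
      have h := ((S : Subgroup G₂).subgroupOf N).card_mul_index
      rw [Nat.card_congr (Subgroup.subgroupOfEquivOfLe Subgroup.le_normalizer).toEquiv, hcard8, hN24] at h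
      omega
    have hle : commutator N ≤ (S : Subgroup G₂).subgroupOf N := by
      haveI : IsCyclic (N ⧸ (S : Subgroup G₂).subgroupOf N) :=
        isCyclic_of_prime_card (p := 3) (by rw [← Subgroup.index_eq_card, hSidx])
      letI := IsCyclic.commGroup (α := N ⧸ (S : Subgroup G₂).subgroupOf N)
      have := Abelianization.commutator_subset_ker (QuotientGroup.mk' ((S : Subgroup G₂).subgroupOf N))
      rwa [QuotientGroup.ker_mk'] at this
    have hcle : Nat.card (commutator N) ∣ 8 := by
      have := Subgroup.card_dvd_of_le hle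
      rwa [Nat.card_congr (Subgroup.subgroupOfEquivOfLe Subgroup.le_normalizer).toEquiv, hcard8] at this
    have h5 : 5 ≤ Nat.card (commutator N) := by
      letI := Fintype.ofFinite (S : Subgroup G₂)
      letI := Fintype.ofFinite (commutator N)
      set I := Finset.univ.image f with hI
      have h4' : 4 ≤ I.card := by
        have h := Finset.card_le_mul_card_image (f := f) Finset.univ 2 (fun b _ => by
          rcases Finset.eq_empty_or_nonempty ({a ∈ (Finset.univ : Finset (S : Subgroup G₂)) | f a = b}) with he | ⟨s, hs⟩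
          · rw [he]; simp
          · refine (Finset.card_le_card (t := {s, ⟨-1 * s, mul_mem (hcS neg_one_mem_center) s.2⟩}) ?_).trans Finset.card_le_two
            intro t ht'
            have hs' := (Finset.mem_filter.1 hs).2
            have htt := (Finset.mem_filter.1 ht').2
            rcases hfib s t (hs'.trans htt.symm) with e | e
            · simp [Subtype.ext e]
            · simp [Subtype.ext_iff, e])
        rw [Finset.card_univ, ← Nat.card_eq_fintype_card, hcard8] at h
        rw [hI]; omega
      have hnot : (⟨-1, Subgroup.le_normalizer (hcS neg_one_mem_center)⟩ : N) ∉ I := by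
        rw [hI, Finset.mem_image]
        rintro ⟨s, -, e⟩
        exact hno s (congrArg Subtype.val e)
      have hsub : ∀ x ∈ Finset.cons _ I hnot, x ∈ (commutator N) := by
        intro x hx
        rcases Finset.mem_cons.1 hx with rfl | hx
        · exact hmz
        · obtain ⟨s, -, rfl⟩ := Finset.mem_image.1 hx
          rw [commutator_def]
          exact Subgroup.commutator_mem_commutator (Subgroup.mem_top _) (Subgroup.mem_top _)
      have h := Finset.card_le_card (s := Finset.cons _ I hnot) (t := (Finset.univ : Finset (commutator N)).map ⟨Subtype.val, Subtype.val_injective⟩)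
        (fun x hx => Finset.mem_map.2 ⟨⟨x, hsub x hx⟩, Finset.mem_univ _, rfl⟩)
      rw [Finset.card_cons, Finset.card_map, Finset.card_univ, ← Nat.card_eq_fintype_card] at h
      omega
    have h8c : Nat.card (commutator N) = 8 := by
      obtain ⟨i, hi, e⟩ := (Nat.dvd_prime_pow Nat.prime_two).1 (show Nat.card (commutator N) ∣ 2 ^ 3 from hcle)
      interval_cases i <;> omega
    have h := (commutator N).card_mul_index
    rw [h8c, hN24] at h
    omega

end CfsgLib.CharDegrees
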